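import Mathlib
import Cfsg.Agent.Perm.SimplePower

/-!
# Automorphisms of a power of a non-abelian simple group permute the factors
-/

set_option autoImplicit false

namespace Cfsg.Agent.Perm

/-- A surjective homomorphism from a finite power of a non-abelian simple group onto a non-abelian
simple group factors through one coordinate. -/
theorem exists_coord_of_surjective {ι : Type*} [Finite ι] {T : Type*} [Group T] [IsSimpleGroup T]
    (hT : ¬ IsMulCommutative T) {U : Type*} [Group U] [IsSimpleGroup U]
    (f : (ι → T) →* U) (hf : Function.Surjective f) :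
    ∃ (i : ι) (α : T ≃* U), ∀ x, f x = α (x i) := by
  classical
  have hker := mem_normal_pi_iff (T := fun _ : ι => T) (fun _ => hT) f.ker
  obtain ⟨i, hi⟩ : ∃ i, ∀ y ∈ f.ker, y i = 1 := by
    by_contra h
    push Not at h
    obtain ⟨u, hu⟩ := exists_ne (1 : U)
    obtain ⟨x, rfl⟩ := hf u
    refine hu ((hker x).2 fun i hi => ?_)
    obtain ⟨y, hy, hyi⟩ := h i
    exact absurd (hi y hy) hyi
  let g : T →* U := f.comp (MonoidHom.mulSingle (fun _ : ι => T) i)
  have hginj : Function.Injective g := by
    rw [injective_iff_map_eq_one]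
    intro t ht
    simpa using hi (Pi.mulSingle i t) ht
  have hgn : g.range.Normal := by
    refine ⟨?_⟩
    rintro _ ⟨t, rfl⟩ u
    obtain ⟨x, rfl⟩ := hf u
    refine ⟨x i * t * (x i)⁻¹, ?_⟩
    simp only [g, MonoidHom.comp_apply, ← map_mul, ← map_inv]
    congr 1
    funext j
    by_cases hj : j = i
    · subst hj; simp
    · simp [Pi.mulSingle_eq_of_ne hj]
  have hgsurj : Function.Surjective g := by
    rcases hgn.eq_bot_or_eq_top with h | h
    · obtain ⟨t, ht⟩ := exists_ne (1 : T)
      have : g t ∈ g.range := ⟨t, rfl⟩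
      rw [h, Subgroup.mem_bot] at this
      exact absurd (hginj (this.trans (map_one g).symm)) ht
    · exact MonoidHom.range_eq_top.1 h
  refine ⟨i, MulEquiv.ofBijective g ⟨hginj, hgsurj⟩, fun x => ?_⟩
  obtain ⟨t, ht⟩ := hgsurj (f x)
  have : (Pi.mulSingle i t)⁻¹ * x ∈ f.ker := by
    rw [MonoidHom.mem_ker, map_mul, map_inv, ← ht]
    exact inv_mul_cancel _
  have h2 := hi _ this
  simp only [Pi.mul_apply, Pi.inv_apply, Pi.mulSingle_eq_same, inv_mul_eq_one] at h2
  rw [← h2]; exact ht.symm

/-- An automorphism of a finite power of a non-abelian simple group permutes the coordinates. -/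
theorem exists_perm_of_mulAut_pi {ι : Type*} [Finite ι] {T : Type*} [Group T] [IsSimpleGroup T]
    (hT : ¬ IsMulCommutative T) (ψ : MulAut (ι → T)) :
    ∃ (τ : Equiv.Perm ι) (α : ι → MulAut T), ∀ x j, ψ x j = α j (x (τ j)) := by
  classical
  choose τ α h using fun j : ι => exists_coord_of_surjective hT
    ((Pi.evalMonoidHom (fun _ : ι => T) j).comp ψ.toMonoidHom)
    ((Function.surjective_eval j).comp ψ.surjective)
  have hτ : Function.Injective τ := by
    intro j j' hjj
    by_contra hne
    obtain ⟨t, ht⟩ := exists_ne (1 : T)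
    obtain ⟨x, hx⟩ := ψ.surjective (Pi.mulSingle j t)
    have h1 : ψ x j = α j (x (τ j)) := h j x
    have h2 : ψ x j' = α j' (x (τ j')) := h j' x
    rw [hx] at h1 h2
    rw [Pi.mulSingle_eq_of_ne (Ne.symm hne), eq_comm, MulEquiv.map_eq_one_iff, ← hjj] at h2
    rw [Pi.mulSingle_eq_same, h2, map_one] at h1
    exact ht h1
  exact ⟨Equiv.ofBijective τ (Finite.injective_iff_bijective.1 hτ), α, fun x j => h j x⟩

end Cfsg.Agent.Perm
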