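import Mathlib
import Cfsg.Prelude.Def_Perm

/-!
Elementary arithmetic in near-fields.
-/

set_option autoImplicit false

namespace Cfsg.Agent.Perm.NF

variable {F : Type*} [Cfsg.NearField F]

theorem add_mul (a b c : F) : (a + b) * c = a * c + b * c := Cfsg.NearField.right_distrib a b c

theorem mul_zero (a : F) : a * 0 = 0 := Cfsg.NearField.mul_zero a

theorem zero_mul (a : F) : 0 * a = 0 := by
  have h := add_mul 0 0 a
  rw [add_zero] at h
  exact left_eq_add.1 h

/-- Right multiplication as an additive endomorphism. -/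
def mulRight (a : F) : F →+ F where
  toFun x := x * a
  map_zero' := zero_mul a
  map_add' x y := add_mul x y a

theorem neg_mul (a b : F) : -a * b = -(a * b) := (mulRight b).map_neg a

theorem sub_mul (a b c : F) : (a - b) * c = a * c - b * c := (mulRight c).map_sub a b

theorem exists_inv {a : F} (ha : a ≠ 0) : ∃ b : F, b ≠ 0 ∧ a * b = 1 ∧ b * a = 1 := by
  obtain ⟨b, h1, h2⟩ := Cfsg.NearField.exists_inv a ha
  refine ⟨b, ?_, h1, h2⟩
  rintro rfl
  rw [mul_zero] at h1
  exact Cfsg.NearField.zero_ne_one h1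

theorem mul_ne_zero {a b : F} (ha : a ≠ 0) (hb : b ≠ 0) : a * b ≠ 0 := by
  intro h
  obtain ⟨c, -, h1, -⟩ := exists_inv hb
  apply ha
  rw [← mul_one a, ← h1, ← mul_assoc, h, zero_mul]

theorem mul_right_cancel {a x y : F} (ha : a ≠ 0) (h : x * a = y * a) : x = y := by
  obtain ⟨c, -, h1, -⟩ := exists_inv ha
  rw [← mul_one x, ← mul_one y, ← h1, ← mul_assoc, h, mul_assoc]

theorem mul_left_cancel {a x y : F} (ha : a ≠ 0) (h : a * x = a * y) : x = y := by
  obtain ⟨c, -, -, h1⟩ := exists_inv ha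
  rw [← one_mul x, ← one_mul y, ← h1, mul_assoc, h, mul_assoc]

theorem exists_mul_eq {a b : F} (ha : a ≠ 0) (hb : b ≠ 0) : ∃ c : F, c ≠ 0 ∧ a * c = b := by
  obtain ⟨c, hc, h1, -⟩ := exists_inv ha
  exact ⟨c * b, mul_ne_zero hc hb, by rw [← mul_assoc, h1, one_mul]⟩

end Cfsg.Agent.Perm.NF
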